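import Cfsg.Agent.Lib.Helper11.P3a.All
import Cfsg.Agent.Lib.Helper11.DefP3

set_option autoImplicit false
set_option maxRecDepth 100000

namespace Cfsg.Agent.Lib.Helper11.P3a

open Cfsg.Spor Cfsg.Agent.Lib.Helper11.P3

def LTF : List (FreeGroup Gen) := [1, l, k, a, b, c, d, e, f, h, i]
def code : Gen → ℕ
  | .l => 1 | .k => 2 | .a => 3 | .b => 4 | .c => 5 | .d => 6 | .e => 7 | .f => 8 | .h => 9 | .i => 10
def nodes : List Gen := [.l, .k, .a, .b, .c, .d, .e, .f, .h, .i]
def extraE : List WExp := [
  .mul (.l 1) (.inv (.pow (.mul (.mul (.mul (.mul (.mul (.mul (.l 3) (.l 4)) (.l 5)) (.l 6)) (.l 7)) (.l 8)) (.l 9)) 9)) ]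
def hE : List (WExp × ℕ) := []

theorem rtok : rt.ok (baseWords edges code nodes INV 10 extraE hE) = true := by decide +kernel

theorem invol (x : Gen) (hx : x ∈ coxNodes edges) :
    (PresentedGroup.mk (coxRelators edges ∪ {r | r ∈ extra})) (FreeGroup.of x) =
      ((PresentedGroup.mk (coxRelators edges ∪ {r | r ∈ extra})) (FreeGroup.of x))⁻¹ := by
  have h := cox_rel edges extra x x hx hx
  have h1 : coxLabel edges x x = 1 := by simp [coxLabel]
  rw [h1, pow_one] at h
  exact eq_inv_of_mul_eq_one_left h

theorem hone : (PresentedGroup.mk (coxRelators edges ∪ {r | r ∈ extra})) 1 =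
    ((PresentedGroup.mk (coxRelators edges ∪ {r | r ∈ extra})) 1)⁻¹ := by simp

theorem hii (x : FreeGroup Gen) : (PresentedGroup.mk (coxRelators edges ∪ {r | r ∈ extra})) x =
    ((PresentedGroup.mk (coxRelators edges ∪ {r | r ∈ extra})) x⁻¹)⁻¹ := by rw [map_inv, inv_inv]

theorem hinv32 : ∀ l < 32, (PresentedGroup.mk (coxRelators edges ∪ {r | r ∈ extra}))
        (LTF.getD (invL INV l) 1) =
      ((PresentedGroup.mk (coxRelators edges ∪ {r | r ∈ extra})) (LTF.getD l 1))⁻¹ := by
  intro l hl
  interval_cases l
  · exact hone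
  · exact invol _ (by decide)
  · exact invol _ (by decide)
  · exact invol _ (by decide)
  · exact invol _ (by decide)
  · exact invol _ (by decide)
  · exact invol _ (by decide)
  · exact invol _ (by decide)
  · exact invol _ (by decide)
  · exact invol _ (by decide)
  · exact invol _ (by decide)
  · exact hone
  · exact hone
  · exact hone
  · exact hone
  · exact hone
  · exact hone
  · exact hone
  · exact hone
  · exact hone
  · exact hone
  · exact hone
  · exact hone
  · exact hone
  · exact hone
  · exact hone
  · exact hone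
  · exact hone
  · exact hone
  · exact hone
  · exact hone
  · exact hone

theorem upper : ((Subgroup.closure ({a, b, c, d, e, f, h, k, l} : Set (FreeGroup Gen))).map
      (PresentedGroup.mk (coxRelators edges ∪ {r | r ∈ extra}))).index ≠ 0 ∧
    ((Subgroup.closure ({a, b, c, d, e, f, h, k, l} : Set (FreeGroup Gen))).map
      (PresentedGroup.mk (coxRelators edges ∪ {r | r ∈ extra}))).index ≤ 28431 := by
  apply cox_index_le edges extra _ LTF code nodes INV 10 extraE hE rt fc sc nc cc isH gens
    1475 889 28431 _ rfl (by decide) (by decide +kernel) hinv32 (by decide) _ _ _ _ _ rtok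
    (by norm_num) (by norm_num) hN0 (by decide) chkAll clAll
  · intro x _
    cases x <;> rfl
  · intro e he
    have : extraE.map (fun e => e.eval (fun l => LTF.getD l 1)) = extra := rfl
    rw [← this]
    exact List.mem_map_of_mem he
  · intro p hp
    have : hE.map (fun p => LTF.getD p.2 1) = hE.map (fun p => p.1.eval (fun l => LTF.getD l 1)) := rfl
    exact List.map_inj_left.1 this p hp
  · intro x
    refine ⟨code x, ?_, ?_⟩ <;> cases x <;> first | rfl | decide
  · intro l hl
    simp only [isH, decide_eq_true_eq, List.mem_cons, List.mem_nil_iff, or_false] at hl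
    rcases hl with rfl | rfl | rfl | rfl | rfl | rfl | rfl | rfl | rfl <;>
      exact Subgroup.subset_closure (by simp [LTF])


end Cfsg.Agent.Lib.Helper11.P3a
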